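/-
Counting blocks by their intersection with a set.
-/
import Mathlib
import Cfsg.Agent.Lib.Steiner.Basic

set_option autoImplicit false

namespace CfsgLib.Steiner

open Cfsg

variable {α : Type*} [Fintype α] [DecidableEq α] {t k : ℕ} {B : Set (Finset α)}

/-- Blocks as a finset. -/
noncomputable def blockF (B : Set (Finset α)) : Finset (Finset α) := (Set.toFinite B).toFinset

theorem mem_blockF {B : Set (Finset α)} {b : Finset α} : b ∈ blockF B ↔ b ∈ B := by
  simp [blockF]

theorem ncard_blocks (B : Set (Finset α)) (p : Finset α → Prop) [DecidablePred p] :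
    {b | b ∈ B ∧ p b}.ncard = ((blockF B).filter p).card := by
  rw [← Set.ncard_coe_finset]
  congr 1
  ext b
  simp [mem_blockF]

/-- Number of blocks meeting `Y` in exactly `i` points. -/
theorem ncard_meet (L : ℕ → ℕ) (Y : Finset α) (hL : ∀ A : Finset α, A ⊆ Y → num B A ∅ = L A.card) (i : ℕ) :
    {b | b ∈ B ∧ (b ∩ Y).card = i}.ncard = Nat.choose Y.card i * tri L i (Y.card - i) := by
  classical
  rw [ncard_blocks]
  have hmap : ∀ b ∈ (blockF B).filter (fun b => (b ∩ Y).card = i), Y ∩ b ∈ Finset.powersetCard i Y := by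
    intro b hb
    rw [Finset.mem_filter] at hb
    rw [Finset.mem_powersetCard]
    exact ⟨Finset.inter_subset_left, by rw [Finset.inter_comm]; exact hb.2⟩
  rw [Finset.card_eq_sum_card_fiberwise hmap]
  have hfib : ∀ A ∈ Finset.powersetCard i Y,
      (((blockF B).filter (fun b => (b ∩ Y).card = i)).filter (fun b => Y ∩ b = A)).card = tri L i (Y.card - i) := by
    intro A hA
    rw [Finset.mem_powersetCard] at hA
    have h1 := count_exact L Y A hL hA.1
    rw [hA.2] at h1
    rw [← h1, ← Set.ncard_coe_finset]
    congr 1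
    ext b
    simp only [Finset.coe_filter, Finset.mem_filter, mem_blockF, Set.mem_ofPred_eq]
    constructor
    · rintro ⟨⟨hb, -⟩, hb2⟩
      exact ⟨hb, hb2⟩
    · rintro ⟨hb, hb2⟩
      refine ⟨⟨hb, ?_⟩, hb2⟩
      rw [Finset.inter_comm, hb2, hA.2]
  rw [Finset.sum_congr rfl hfib, Finset.sum_const, Finset.card_powersetCard, smul_eq_mul]

theorem hL5824' (hα : Fintype.card α = 24) (hB : IsSteinerSystem 5 8 B) (A : Finset α) (hA : A.card ≤ 5) :
    num B A ∅ = L5824 A.card := by
  by_cases h5 : A.card = 5
  · obtain ⟨b, ⟨hb, hAb⟩, -⟩ := hB.2 A h5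
    rw [num_empty_of_large hB hb hAb (by omega), h5]
    rfl
  · have h := card_blocks_through hB A hA
    rw [hα] at h
    generalize A.card = i at *
    have hi : i < 5 := by omega
    interval_cases i <;> simp only [L5824] <;> norm_num [Nat.choose] at h <;> omega

/-- Derived design. -/
theorem derived {t k : ℕ} {B : Set (Finset α)} (hB : IsSteinerSystem (t + 1) (k + 1) B) (p : α) :
    IsSteinerSystem t k {b' : Finset {a : α // a ≠ p} | ∃ b ∈ B, p ∈ b ∧ b' = Finset.subtype (fun a => a ≠ p) b} := by
  classical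
  have hcard : ∀ b : Finset α, p ∈ b → (Finset.subtype (fun a => a ≠ p) b).card = b.card - 1 := by
    intro b hb
    rw [Finset.card_subtype, ← Finset.card_erase_of_mem hb]
    congr 1
    ext x
    simp [and_comm]
  constructor
  · rintro _ ⟨b, hb, hpb, rfl⟩
    rw [hcard b hpb, hB.1 b hb]
    rfl
  · intro s hs
    set s' : Finset α := insert p (s.map (Function.Embedding.subtype _)) with hs'
    have hpns : p ∉ s.map (Function.Embedding.subtype (fun a => a ≠ p)) := by
      simp
    have hs'card : s'.card = t + 1 := by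
      rw [hs', Finset.card_insert_of_notMem hpns, Finset.card_map, hs]
    obtain ⟨b, ⟨hb, hsb⟩, hu⟩ := hB.2 s' hs'card
    have hpb : p ∈ b := hsb (Finset.mem_insert_self _ _)
    refine ⟨Finset.subtype (fun a => a ≠ p) b, ⟨⟨b, hb, hpb, rfl⟩, ?_⟩, ?_⟩
    · intro x hx
      rw [Finset.mem_subtype]
      apply hsb
      rw [hs', Finset.mem_insert]
      right
      exact Finset.mem_map_of_mem _ hx
    · rintro _ ⟨⟨c, hc, hpc, rfl⟩, hsc⟩
      have : c = b := by
        apply hu
        refine ⟨hc, ?_⟩
        intro x hx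
        rw [hs', Finset.mem_insert] at hx
        rcases hx with rfl | hx
        · exact hpc
        · rw [Finset.mem_map] at hx
          obtain ⟨y, hy, rfl⟩ := hx
          have := hsc hy
          rwa [Finset.mem_subtype] at this
      rw [this]

end CfsgLib.Steiner
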