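/-
The S(3,6,22): intersection numbers with pairs of blocks.
-/
import Mathlib
import Cfsg.Agent.Lib.Steiner.Count

set_option autoImplicit false

namespace CfsgLib.Steiner

open Cfsg

variable {α : Type*} [Fintype α] [DecidableEq α] {B : Set (Finset α)}

theorem sum_inter_mul (F : Finset (Finset α)) (X Y : Finset α) :
    ∑ c ∈ F, (c ∩ X).card * (c ∩ Y).card = ∑ x ∈ X, ∑ y ∈ Y, (F.filter (fun c => x ∈ c ∧ y ∈ c)).card := by
  have hc : ∀ (c X : Finset α), (c ∩ X).card = ∑ x ∈ X, if x ∈ c then 1 else 0 := by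
    intro c X
    rw [Finset.card_eq_sum_ones, Finset.sum_ite_mem]
    simp [Finset.inter_comm]
  simp_rw [Finset.card_filter]
  calc ∑ c ∈ F, (c ∩ X).card * (c ∩ Y).card
      = ∑ c ∈ F, ∑ x ∈ X, ∑ y ∈ Y, (if x ∈ c ∧ y ∈ c then 1 else 0) := by
        apply Finset.sum_congr rfl
        intro c _
        rw [hc c X, hc c Y, Finset.sum_mul_sum]
        apply Finset.sum_congr rfl
        intro x _
        apply Finset.sum_congr rfl
        intro y _
        by_cases h1 : x ∈ c <;> by_cases h2 : y ∈ c <;> simp [h1, h2]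
    _ = ∑ x ∈ X, ∑ y ∈ Y, ∑ c ∈ F, (if x ∈ c ∧ y ∈ c then 1 else 0) := by
        rw [Finset.sum_comm]
        apply Finset.sum_congr rfl
        intro x _
        rw [Finset.sum_comm]

section
variable (hα : Fintype.card α = 22) (hB : IsSteinerSystem 3 6 B)
include hα hB

theorem num3622 (A : Finset α) (hA : A.card ≤ 3) : num B A ∅ = L3622 A.card := by
  by_cases h5 : A.card = 3
  · obtain ⟨b, ⟨hb, hAb⟩, -⟩ := hB.2 A h5
    rw [num_empty_of_large hB hb hAb (by omega), h5]
    rfl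
  · have h := card_blocks_through hB A hA
    rw [hα] at h
    generalize A.card = i at *
    have hi : i < 3 := by omega
    interval_cases i <;> simp only [L3622] <;> norm_num [Nat.choose] at h <;> omega

theorem num_filter (A : Finset α) : ((blockF B).filter (fun c => A ⊆ c)).card = num B A ∅ := by
  unfold num
  rw [← Set.ncard_coe_finset]
  congr 1
  ext c
  simp [mem_blockF]

theorem card_blocks : (blockF B).card = 77 := by
  have h1 := num_filter hα hB ∅
  rw [num3622 hα hB ∅ (by simp)] at h1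
  simpa [L3622] using h1

theorem blocks_through_pt (x : α) : ((blockF B).filter (fun c => x ∈ c)).card = 21 := by
  have h1 := num_filter hα hB {x}
  rw [num3622 hα hB {x} (by simp)] at h1
  simpa [L3622] using h1

theorem blocks_through_pair {x y : α} (hxy : x ≠ y) : ((blockF B).filter (fun c => x ∈ c ∧ y ∈ c)).card = 5 := by
  have h1 := num_filter hα hB {x, y}
  rw [num3622 hα hB {x, y} (by rw [Finset.card_pair hxy]; norm_num), Finset.card_pair hxy] at h1
  have h2 : (blockF B).filter (fun c => x ∈ c ∧ y ∈ c) = (blockF B).filter (fun c => {x, y} ⊆ c) := by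
    ext c
    simp [Finset.insert_subset_iff]
  rw [h2, h1]
  rfl

theorem inter_cases {b c : Finset α} (hb : b ∈ B) (hc : c ∈ B) (hne : b ≠ c) :
    (b ∩ c).card = 0 ∨ (b ∩ c).card = 2 := by
  have hb6 := hB.1 b hb
  have hc6 := hB.1 c hc
  have hL := hL3622 hα hB hb
  have hle : (b ∩ c).card ≤ 6 := by
    rw [← hb6]; exact Finset.card_le_card Finset.inter_subset_left
  have h6 : (b ∩ c).card ≠ 6 := by
    intro h
    apply hne
    have h1 : b ∩ c = b := Finset.eq_of_subset_of_card_le Finset.inter_subset_left (by omega)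
    have h2 : b ∩ c = c := Finset.eq_of_subset_of_card_le Finset.inter_subset_right (by omega)
    rw [← h1, h2]
  have hne' : ∀ i, tri L3622 i (b.card - i) = 0 → (b ∩ c).card ≠ i := fun i h =>
    inter_card_ne L3622 hL hc i h
  rw [hb6] at hne'
  have h1 := hne' 1 (by decide)
  have h3 := hne' 3 (by decide)
  have h4 := hne' 4 (by decide)
  have h5 := hne' 5 (by decide)
  omega

theorem disj_count {b : Finset α} (hb : b ∈ B) : ((blockF B).filter (fun c => b ∩ c = ∅)).card = 16 := by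
  have hb6 := hB.1 b hb
  have h1 := count_exact (B := B) L3622 b ∅ (hL3622 hα hB hb) (Finset.empty_subset _)
  rw [hb6] at h1
  have h2 : tri L3622 (∅ : Finset α).card (6 - (∅ : Finset α).card) = 16 := by
    rw [Finset.card_empty]; decide
  rw [h2] at h1
  rw [← h1, ← Set.ncard_coe_finset]
  congr 1
  ext c
  simp [mem_blockF]

theorem sum_pair (X Y : Finset α) : ∑ c ∈ blockF B, (c ∩ X).card * (c ∩ Y).card = 5 * (X.card * Y.card) + 16 * (X ∩ Y).card := by
  rw [sum_inter_mul]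
  have h1 : ∀ x ∈ X, ∑ y ∈ Y, ((blockF B).filter (fun c => x ∈ c ∧ y ∈ c)).card = 5 * Y.card + 16 * (if x ∈ Y then 1 else 0) := by
    intro x _
    have h2 : ∀ y ∈ Y, ((blockF B).filter (fun c => x ∈ c ∧ y ∈ c)).card = 5 + 16 * (if y = x then 1 else 0) := by
      intro y _
      by_cases hxy : y = x
      · subst hxy
        simp only [and_self, if_true, blocks_through_pt hα hB]
      · rw [blocks_through_pair hα hB (Ne.symm hxy), if_neg hxy]
    rw [Finset.sum_congr rfl h2, Finset.sum_add_distrib, Finset.sum_const, ← Finset.mul_sum, Finset.sum_ite_eq']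
    simp [mul_comm]
  rw [Finset.sum_congr rfl h1, Finset.sum_add_distrib, Finset.sum_const, ← Finset.mul_sum]
  congr 1
  · simp [mul_left_comm]
  · congr 1
    rw [Finset.sum_ite_mem]
    simp

/-- Number of blocks meeting both of two distinct blocks. -/
theorem meet_both {b₁ b₂ : Finset α} (h₁ : b₁ ∈ B) (h₂ : b₂ ∈ B) (hne : b₁ ≠ b₂) :
    ((b₁ ∩ b₂).card = 0 → ((blockF B).filter (fun c => b₁ ∩ c ≠ ∅ ∧ b₂ ∩ c ≠ ∅)).card = 45) ∧
    ((b₁ ∩ b₂).card = 2 → ((blockF B).filter (fun c => b₁ ∩ c ≠ ∅ ∧ b₂ ∩ c ≠ ∅)).card = 49) := by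
  have h16 := hB.1 b₁ h₁
  have h26 := hB.1 b₂ h₂
  have hs := sum_pair hα hB b₁ b₂
  rw [h16, h26] at hs
  have hmem1 : b₁ ∈ blockF B := mem_blockF.2 h₁
  have hmem2 : b₂ ∈ (blockF B).erase b₁ := Finset.mem_erase.2 ⟨Ne.symm hne, mem_blockF.2 h₂⟩
  rw [← Finset.add_sum_erase _ _ hmem1, ← Finset.add_sum_erase _ _ hmem2] at hs
  simp only [Finset.inter_self, h16, h26] at hs
  rw [Finset.inter_comm b₂ b₁] at hs
  set U := ((blockF B).erase b₁).erase b₂ with hU
  have hrest : ∑ c ∈ U, (c ∩ b₁).card * (c ∩ b₂).card =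
      4 * ((U.filter (fun c => b₁ ∩ c ≠ ∅ ∧ b₂ ∩ c ≠ ∅)).card) := by
    rw [Finset.card_filter, Finset.mul_sum]
    apply Finset.sum_congr rfl
    intro c hc
    rw [hU, Finset.mem_erase, Finset.mem_erase, mem_blockF] at hc
    obtain ⟨h2c, h1c, hcB⟩ := hc
    have e1 := inter_cases hα hB h₁ hcB (Ne.symm h1c)
    have e2 := inter_cases hα hB h₂ hcB (Ne.symm h2c)
    rw [Finset.inter_comm c b₁, Finset.inter_comm c b₂]
    rcases e1 with e1 | e1 <;> rcases e2 with e2 | e2
    · simp [Finset.card_eq_zero.1 e1, Finset.card_eq_zero.1 e2]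
    · simp [Finset.card_eq_zero.1 e1]
    · simp [Finset.card_eq_zero.1 e2]
    · have n1 : b₁ ∩ c ≠ ∅ := by intro h; rw [h] at e1; simp at e1
      have n2 : b₂ ∩ c ≠ ∅ := by intro h; rw [h] at e2; simp at e2
      simp [e1, e2, n1, n2]
  rw [hrest] at hs
  have hb₁ne : b₁ ∩ b₁ ≠ ∅ := by
    rw [Finset.inter_self]; intro h; rw [h] at h16; simp at h16
  have hb₂ne : b₂ ∩ b₂ ≠ ∅ := by
    rw [Finset.inter_self]; intro h; rw [h] at h26; simp at h26
  constructor
  · intro h0
    have he : b₁ ∩ b₂ = ∅ := Finset.card_eq_zero.1 h0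
    have hf : (blockF B).filter (fun c => b₁ ∩ c ≠ ∅ ∧ b₂ ∩ c ≠ ∅) = U.filter (fun c => b₁ ∩ c ≠ ∅ ∧ b₂ ∩ c ≠ ∅) := by
      ext c
      simp only [Finset.mem_filter, hU, Finset.mem_erase]
      constructor
      · rintro ⟨hc, hc1, hc2⟩
        refine ⟨⟨?_, ?_, hc⟩, hc1, hc2⟩
        · rintro rfl; exact hc1 he
        · rintro rfl; rw [Finset.inter_comm] at hc2; exact hc2 he
      · rintro ⟨⟨_, _, hc⟩, hc1, hc2⟩
        exact ⟨hc, hc1, hc2⟩
    rw [hf]
    rw [h0] at hs
    omega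
  · intro h2
    have hne12 : b₁ ∩ b₂ ≠ ∅ := by intro h; rw [h] at h2; simp at h2
    have hf : (blockF B).filter (fun c => b₁ ∩ c ≠ ∅ ∧ b₂ ∩ c ≠ ∅) =
        insert b₁ (insert b₂ (U.filter (fun c => b₁ ∩ c ≠ ∅ ∧ b₂ ∩ c ≠ ∅))) := by
      ext c
      simp only [Finset.mem_filter, hU, Finset.mem_erase, Finset.mem_insert]
      constructor
      · rintro ⟨hc, hc1, hc2⟩
        by_cases h1 : c = b₁
        · exact Or.inl h1
        · by_cases h3 : c = b₂
          · exact Or.inr (Or.inl h3)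
          · exact Or.inr (Or.inr ⟨⟨h3, h1, hc⟩, hc1, hc2⟩)
      · rintro (rfl | rfl | ⟨⟨_, _, hc⟩, hc1, hc2⟩)
        · refine ⟨hmem1, hb₁ne, ?_⟩
          rwa [Finset.inter_comm]
        · exact ⟨mem_blockF.2 h₂, hne12, hb₂ne⟩
        · exact ⟨hc, hc1, hc2⟩
    have hn1 : b₁ ∉ insert b₂ (U.filter (fun c => b₁ ∩ c ≠ ∅ ∧ b₂ ∩ c ≠ ∅)) := by
      simp only [Finset.mem_insert, Finset.mem_filter, hU, Finset.mem_erase, not_or]
      refine ⟨hne, fun h => h.1.2.1 rfl⟩
    have hn2 : b₂ ∉ U.filter (fun c => b₁ ∩ c ≠ ∅ ∧ b₂ ∩ c ≠ ∅) := by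
      simp only [Finset.mem_filter, hU, Finset.mem_erase]
      exact fun h => h.1.1 rfl
    rw [hf, Finset.card_insert_of_notMem hn1, Finset.card_insert_of_notMem hn2]
    rw [h2] at hs
    omega

/-- Blocks disjoint from both of two distinct blocks, in terms of the number of blocks meeting both. -/
theorem common_add {b₁ b₂ : Finset α} (h₁ : b₁ ∈ B) (h₂ : b₂ ∈ B) :
    ((blockF B).filter (fun c => b₁ ∩ c = ∅ ∧ b₂ ∩ c = ∅)).card + 45 =
      ((blockF B).filter (fun c => b₁ ∩ c ≠ ∅ ∧ b₂ ∩ c ≠ ∅)).card := by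
  have h1 := disj_count hα hB h₁
  have h2 := disj_count hα hB h₂
  have h3 := card_blocks hα hB
  have h4 := Finset.card_union_add_card_inter ((blockF B).filter (fun c => b₁ ∩ c = ∅)) ((blockF B).filter (fun c => b₂ ∩ c = ∅))
  rw [← Finset.filter_or, ← Finset.filter_and, h1, h2] at h4
  have h5 := Finset.card_filter_add_card_filter_not (s := blockF B) (fun c => b₁ ∩ c = ∅ ∨ b₂ ∩ c = ∅)
  have h6 : (blockF B).filter (fun c => ¬ (b₁ ∩ c = ∅ ∨ b₂ ∩ c = ∅)) = (blockF B).filter (fun c => b₁ ∩ c ≠ ∅ ∧ b₂ ∩ c ≠ ∅) := by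
    ext c
    simp only [Finset.mem_filter, not_or, ne_eq]
  rw [h6, h3] at h5
  omega

theorem common_disjoint {b₁ b₂ : Finset α} (h₁ : b₁ ∈ B) (h₂ : b₂ ∈ B) (hne : b₁ ≠ b₂) (hd : (b₁ ∩ b₂).card = 0) :
    ((blockF B).filter (fun c => b₁ ∩ c = ∅ ∧ b₂ ∩ c = ∅)).card = 0 := by
  have h1 := common_add hα hB h₁ h₂
  rw [(meet_both hα hB h₁ h₂ hne).1 hd] at h1
  omega

theorem common_meeting {b₁ b₂ : Finset α} (h₁ : b₁ ∈ B) (h₂ : b₂ ∈ B) (hne : b₁ ≠ b₂) (hd : (b₁ ∩ b₂).card = 2) :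
    ((blockF B).filter (fun c => b₁ ∩ c = ∅ ∧ b₂ ∩ c = ∅)).card = 4 := by
  have h1 := common_add hα hB h₁ h₂
  rw [(meet_both hα hB h₁ h₂ hne).2 hd] at h1
  omega

/-- Blocks through a point off a given block and disjoint from it. -/
theorem pt_disjoint {x : α} {b : Finset α} (hb : b ∈ B) (hx : x ∉ b) :
    ((blockF B).filter (fun c => x ∈ c ∧ b ∩ c = ∅)).card = 6 := by
  have hb6 := hB.1 b hb
  have hs := sum_pair hα hB {x} b
  have h0 : ({x} ∩ b : Finset α) = ∅ := by simp [hx]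
  rw [h0, hb6] at hs
  simp only [Finset.card_singleton, Finset.card_empty] at hs
  have hrest : ∑ c ∈ blockF B, (c ∩ {x}).card * (c ∩ b).card =
      2 * ((blockF B).filter (fun c => x ∈ c ∧ b ∩ c ≠ ∅)).card := by
    rw [Finset.card_filter, Finset.mul_sum]
    apply Finset.sum_congr rfl
    intro c hc
    rw [mem_blockF] at hc
    by_cases hxc : x ∈ c
    · have hne : b ≠ c := by rintro rfl; exact hx hxc
      have e1 := inter_cases hα hB hb hc hne
      have h3 : (c ∩ {x} : Finset α) = {x} := by simp [hxc]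
      rw [h3, Finset.inter_comm c b]
      rcases e1 with e1 | e1
      · simp [Finset.card_eq_zero.1 e1]
      · have n1 : b ∩ c ≠ ∅ := by intro h; rw [h] at e1; simp at e1
        simp [e1, hxc, n1]
    · have h3 : (c ∩ {x} : Finset α) = ∅ := by simp [hxc]
      rw [h3]
      simp [hxc]
  rw [hrest] at hs
  have h7 := blocks_through_pt hα hB x
  have h8 := Finset.card_filter_add_card_filter_not (s := (blockF B).filter (fun c => x ∈ c)) (fun c => b ∩ c = ∅)
  rw [Finset.filter_filter, Finset.filter_filter, h7] at h8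
  simp only [ne_eq] at hs
  omega

end

end CfsgLib.Steiner
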